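import Cfsg.Agent.KnownA.UnitaryCtx
import Cfsg.Agent.Forms.UnitarySimple
import Cfsg.Agent.Forms.UnitaryOrder

/-!
# Subgroups of `PSU₃(5)` have index at least fifty
-/

set_option autoImplicit false

namespace Cfsg.Agent.KnownA.U35

open Cfsg.Agent.Forms (frobQ frobQ_apply)
open scoped commutatorElement

variable {F : Type*} [Field F] [Fintype F] (hF : Fintype.card F = 5 ^ 2)

include hF in
theorem charP_five : CharP F 5 :=
  haveI : Fact (Nat.Prime 5) := ⟨by norm_num⟩
  charP_of_card_eq_prime_pow hF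

/-- an isotropic vector -/
def eV : Fin 3 → F := ![1, 2, 0]
/-- its partner -/
def fV : Fin 3 → F := ![3, 4, 0]
/-- a vector orthogonal to both -/
def zV : Fin 3 → F := ![0, 0, 1]

include hF in
theorem five_eq : (5 : F) = 0 := by
  haveI := charP_five hF
  exact_mod_cast CharP.cast_eq_zero F 5

include hF in
theorem forms : ub hF (eV : Fin 3 → F) eV = 0 ∧ ub hF (fV : Fin 3 → F) fV = 0 ∧ ub hF (eV : Fin 3 → F) fV = 1 ∧
    ub hF (eV : Fin 3 → F) zV = 0 ∧ ub hF (fV : Fin 3 → F) zV = 0 ∧ ub hF (zV : Fin 3 → F) zV = 1 := by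
  have h5 := five_eq hF
  have hub : ∀ u v : Fin 3 → F, ub hF u v = v 0 * frobQ hF (u 0) + v 1 * frobQ hF (u 1) + v 2 * frobQ hF (u 2) :=
    fun u v => by rw [ub, Forms.hermB_apply, Cfsg.hermForm, Fin.sum_univ_three]; simp [frobQ_apply]
  refine ⟨?_, ?_, ?_, ?_, ?_, ?_⟩ <;> simp [hub, eV, fV, zV, map_ofNat]
  · linear_combination h5
  · linear_combination 5 * h5
  · linear_combination 2 * h5

/-- the admissible parameters -/
def Adm (a c : F) : Prop := c + frobQ hF c = -ub hF (a • (zV : Fin 3 → F)) (a • zV)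

/-- an element of the unipotent group -/
noncomputable def R (a c : F) : Cfsg.SU 3 F 5 := root hF eV (a • zV) c

theorem adm_iff (a c : F) : Adm hF a c ↔ c + frobQ hF c = -(frobQ hF a * a) := by
  rw [Adm, ub_smul_left hF, ub_smul_right hF, (forms hF).2.2.2.2.2, mul_one]

theorem ub_e (a : F) : ub hF (eV : Fin 3 → F) (a • zV) = 0 := by
  rw [ub_smul_right hF, (forms hF).2.2.2.1, mul_zero]

theorem R_mul {a c b d : F} (h : Adm hF a c) (h' : Adm hF b d) :
    R hF a c * R hF b d = R hF (a + b) (c + d - frobQ hF a * b) := by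
  rw [R, R, R, root_mul hF (forms hF).1 (ub_e hF a) (ub_e hF b) h h', add_smul]
  congr 1
  rw [ub_smul_left hF, ub_smul_right hF, (forms hF).2.2.2.2.2, mul_one]

theorem adm_mul {a c b d : F} (h : Adm hF a c) (h' : Adm hF b d) :
    Adm hF (a + b) (c + d - frobQ hF a * b) := by
  rw [adm_iff] at h h' ⊢
  simp only [map_add, map_sub, map_mul, sig_sig hF]
  linear_combination h + h'

theorem adm_zero : Adm hF (0 : F) 0 := by rw [adm_iff]; simp

theorem adm_neg {a c : F} (h : Adm hF a c) : Adm hF (-a) (-c - frobQ hF a * a) := by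
  rw [adm_iff] at h ⊢
  simp only [map_sub, map_mul, map_neg, sig_sig hF]
  linear_combination -h

theorem act_R {a c : F} (h : Adm hF a c) (x : Fin 3 → F) :
    act (R hF a c) x = x + ub hF eV x • (a • zV) + (c * ub hF eV x - ub hF (a • zV) x) • eV :=
  act_root hF (forms hF).1 (ub_e hF a) h x

theorem R_zero : R hF (0 : F) 0 = 1 := by
  refine su_ext fun x => ?_
  rw [act_R hF (adm_zero hF), zero_smul, ub_zero_left hF, act_one]
  simp

/-- the unipotent group -/
noncomputable def U : Subgroup (Cfsg.SU 3 F 5) where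
  carrier := {g | ∃ a c, Adm hF a c ∧ g = R hF a c}
  one_mem' := ⟨0, 0, adm_zero hF, (R_zero hF).symm⟩
  mul_mem' := by
    rintro _ _ ⟨a, c, h, rfl⟩ ⟨b, d, h', rfl⟩
    exact ⟨_, _, adm_mul hF h h', R_mul hF h h'⟩
  inv_mem' := by
    rintro _ ⟨a, c, h, rfl⟩
    refine ⟨-a, -c - frobQ hF a * a, adm_neg hF h, inv_eq_of_mul_eq_one_right ?_⟩
    rw [R_mul hF h (adm_neg hF h), ← R_zero hF]
    congr 1 <;> ring

theorem R_eval {a c : F} (h : Adm hF a c) :
    ub hF zV (act (R hF a c) fV) = a ∧ ub hF fV (act (R hF a c) fV) = c := by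
  obtain ⟨he, hf, hef, hez, hfz, hzz⟩ := forms hF
  have hfe : ub hF (fV : Fin 3 → F) eV = 1 := by rw [← ub_symm hF, hef, map_one]
  have hze := ub_eq_zero_symm hF hez
  have hzf := ub_eq_zero_symm hF hfz
  have hw : ub hF (a • zV) (fV : Fin 3 → F) = 0 := by rw [ub_smul_left hF, hzf, mul_zero]
  rw [act_R hF h, hef, one_smul, hw]
  simp only [ub_add_right hF, ub_smul_right hF, hzf, hze, hzz, hf, hfz, hfe, mul_one, sub_zero, mul_zero,
    add_zero, zero_add]
  trivial

theorem R_inj {a c b d : F} (h : Adm hF a c) (h' : Adm hF b d) (e : R hF a c = R hF b d) : a = b ∧ c = d :=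
  ⟨by rw [← (R_eval hF h).1, e, (R_eval hF h').1], by rw [← (R_eval hF h).2, e, (R_eval hF h').2]⟩

theorem pow_five (g : U hF) : g ^ 25 = 1 := by
  haveI := charP_five hF
  obtain ⟨g, a, c, h, rfl⟩ := g
  have hk : ∀ k : ℕ, ∃ d, Adm hF (k • a) d ∧ R hF a c ^ k = R hF (k • a) d := by
    intro k
    induction k with
    | zero => exact ⟨0, by rw [zero_smul]; exact adm_zero hF, by rw [pow_zero, zero_smul, R_zero]⟩
    | succ k ih =>
      obtain ⟨d, hd, e⟩ := ih
      refine ⟨d + c - frobQ hF (k • a) * a, ?_, ?_⟩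
      · rw [succ_nsmul]; exact adm_mul hF hd h
      · rw [pow_succ, e, R_mul hF hd h, succ_nsmul]
  obtain ⟨d, hd, e⟩ := hk 5
  have h5 : (5 : ℕ) • a = 0 := by simp [nsmul_eq_mul, five_eq hF]
  rw [h5] at hd e
  have hk' : ∀ k : ℕ, Adm hF (0 : F) (k • d) ∧ R hF (0 : F) d ^ k = R hF 0 (k • d) := by
    intro k
    induction k with
    | zero => exact ⟨by rw [zero_smul]; exact adm_zero hF, by rw [pow_zero, zero_smul, R_zero]⟩
    | succ k ih =>
      have hm := adm_mul hF ih.1 hd
      rw [add_zero, map_zero, zero_mul, sub_zero, ← succ_nsmul] at hm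
      refine ⟨hm, ?_⟩
      rw [pow_succ, ih.2, R_mul hF ih.1 hd, add_zero, map_zero, zero_mul, sub_zero, succ_nsmul]
  apply Subtype.ext
  show R hF a c ^ 25 = 1
  rw [show (25 : ℕ) = 5 * 5 from rfl, pow_mul, e, (hk' 5).2]
  have : (5 : ℕ) • d = 0 := by simp [nsmul_eq_mul, five_eq hF]
  rw [this, R_zero]

/-- the skew parameters -/
theorem exists_adm (a : F) : ∃ c, Adm hF a c := by
  refine ⟨2 * (frobQ hF a * a), (adm_iff hF _ _).2 ?_⟩
  simp only [map_mul, map_ofNat, sig_sig hF]
  linear_combination (frobQ hF a * a) * five_eq hF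

include hF in
theorem exists_t : ∃ t : F, t ^ 4 = -1 ∧ frobQ hF t = -t := by
  classical
  obtain ⟨g, hg⟩ := IsCyclic.exists_generator (α := Fˣ)
  have ho : orderOf g = 24 := by
    rw [orderOf_eq_card_of_forall_mem_zpowers hg, Nat.card_eq_fintype_card, Fintype.card_units, hF]; norm_num
  have h24 : ((g : F) ^ 12) * ((g : F) ^ 12) = 1 := by
    rw [← pow_add, ← Units.val_pow_eq_pow_val, show 12 + 12 = orderOf g from ho.symm, pow_orderOf_eq_one,
      Units.val_one]
  have hne : (g : F) ^ 12 ≠ 1 := by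
    rw [← Units.val_pow_eq_pow_val, ne_eq, Units.val_eq_one]
    exact pow_ne_one_of_lt_orderOf (by norm_num) (by omega)
  have h12 : (g : F) ^ 12 = -1 := (mul_self_eq_one_iff.1 h24).resolve_left hne
  refine ⟨(g : F) ^ 3, by rw [← pow_mul, h12], ?_⟩
  rw [frobQ_apply, ← pow_mul, show 3 * 5 = 12 + 3 from rfl, pow_add, h12, neg_one_mul]

theorem exists_g : ∃ (g : Cfsg.SU 3 F 5) (t : F), t ≠ 0 ∧ frobQ hF t = -t ∧ g ^ 8 = 1 ∧
    ∀ a c : F, Adm hF a c → Adm hF (t * a) (-(t * t) * c) ∧ g * R hF a c * g⁻¹ = R hF (t * a) (-(t * t) * c) := by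
  obtain ⟨he, hf, hef, hez, hfz, hzz⟩ := forms hF
  have hfe : ub hF (fV : Fin 3 → F) eV = 1 := by rw [← ub_symm hF, hef, map_one]
  have hze := ub_eq_zero_symm hF hez
  have hzf := ub_eq_zero_symm hF hfz
  obtain ⟨t, ht4, hts⟩ := exists_t hF
  have ht : t ≠ 0 := by rintro rfl; norm_num at ht4
  obtain ⟨g, hg⟩ := exists_torus_three hF eV fV zV t ht he hf hef hez hfz hzz
  have hdiv : frobQ hF t / t = -1 := by rw [hts, neg_div, div_self ht]
  simp only [hdiv] at hg
  have hge : act g eV = t • (eV : Fin 3 → F) := by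
    rw [hg, hfe, he, hze]
    simp only [mul_one, mul_zero, zero_smul, add_zero]
    module
  have hgz : act g zV = -(zV : Fin 3 → F) := by
    rw [hg, hez, hfz, hzz]
    simp only [mul_one, mul_zero, zero_smul, add_zero]
    module
  have hgpow : ∀ k : ℕ, ∀ x : Fin 3 → F, act (g ^ k) x = x + ((t ^ k - 1) * ub hF fV x) • eV +
      ((((frobQ hF t)⁻¹) ^ k - 1) * ub hF eV x) • fV + (((-1) ^ k - 1) * ub hF zV x) • zV := by
    intro k
    induction k with
    | zero => intro x; simp [act_one]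
    | succ k ih =>
      intro x
      rw [pow_succ, act_mul_apply, ih, hg]
      simp only [ub_add_right hF, ub_smul_right hF, hfe, hf, hfz, he, hef, hez, hze, hzf, hzz, mul_zero, add_zero,
        mul_one]
      match_scalars <;> ring
  refine ⟨g, t, ht, hts, su_ext fun x => ?_, fun a c h => ?_⟩
  · have h8 : t ^ 8 = 1 := by rw [show 8 = 4 * 2 from rfl, pow_mul, ht4]; ring
    rw [hgpow, hts, inv_pow, Even.neg_pow (by decide : Even 8), h8, act_one]
    norm_num
  have hadm : Adm hF (t * a) (-(t * t) * c) := by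
    rw [adm_iff] at h ⊢
    simp only [map_mul, map_neg, hts, neg_mul_neg]
    linear_combination -(t * t) * h
  refine ⟨hadm, mul_inv_eq_iff_eq_mul.2 (su_ext fun x => ?_)⟩
  rw [act_mul_apply, act_mul_apply, act_R hF h, act_R hF hadm]
  simp only [map_add, map_smul, hge, hgz]
  have h1 : ub hF eV (act g x) = -(t⁻¹) * ub hF eV x := by
    rw [hg]
    simp only [ub_add_right hF, ub_smul_right hF, he, hef, hez, mul_zero, add_zero, mul_one, hts, inv_neg]
    ring
  have h2 : ub hF zV (act g x) = -ub hF zV x := by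
    rw [hg]
    simp only [ub_add_right hF, ub_smul_right hF, hze, hzf, hzz, mul_zero, add_zero, mul_one]
    ring
  simp only [ub_smul_left hF, h1, h2, map_mul, hts]
  match_scalars <;> field_simp <;> ring

include hF in
theorem index_ge (H : Subgroup (Cfsg.PSU 3 F 5)) (hH : H ≠ ⊤) : 50 ≤ H.index := by
  classical
  by_contra hlt
  push Not at hlt
  haveI : IsSimpleGroup (Cfsg.PSU 3 F 5) := Forms.psu_simple hF le_rfl (by omega)
  haveI : Finite (Cfsg.SU 3 F 5) := Subtype.finite
  haveI : Finite (Cfsg.PSU 3 F 5) := Quotient.finite _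
  let π : Cfsg.SU 3 F 5 →* Cfsg.PSU 3 F 5 := QuotientGroup.mk' _
  let X := Cfsg.PSU 3 F 5 ⧸ H
  let φ : Cfsg.SU 3 F 5 →* Equiv.Perm X := (MulAction.toPermHom (Cfsg.PSU 3 F 5) X).comp π
  letI : MulAction (Cfsg.SU 3 F 5) X := MulAction.compHom X π
  haveI : Fact (Nat.Prime 5) := ⟨by norm_num⟩
  have hX : Nat.card X < 50 := hlt
  -- the kernel is central
  have hker : ∀ g : Cfsg.SU 3 F 5, (∀ x : X, g • x = x) → g ∈ Subgroup.center (Cfsg.SU 3 F 5) := by
    intro g hg
    have hc : π g ∈ H.normalCore := by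
      rw [Subgroup.normalCore_eq_ker, MonoidHom.mem_ker]
      exact Equiv.ext hg
    rcases (Subgroup.normalCore_normal H).eq_bot_or_eq_top with h | h
    · rw [h, Subgroup.mem_bot] at hc
      exact (QuotientGroup.eq_one_iff g).1 hc
    · exact absurd (top_le_iff.1 (h ▸ H.normalCore_le)) hH
  have hcent : ∀ c : F, Adm hF 0 c → R hF 0 c ∈ Subgroup.center (Cfsg.SU 3 F 5) → c = 0 := by
    intro c hc hmem
    obtain ⟨g, t, ht, hts, -, hg⟩ := exists_g hF
    obtain ⟨hadm, he⟩ := hg 0 c hc
    rw [Subgroup.mem_center_iff.1 hmem g, mul_inv_cancel_right] at he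
    have h2 := (R_inj hF hc hadm he).2
    by_contra hc0
    have h1 : -(t * t) = 1 := mul_right_cancel₀ hc0 (by rw [one_mul]; exact h2.symm)
    have htt : t * t = -1 := by linear_combination -h1
    have h4 : t ^ 4 = 1 := by linear_combination (t * t - 1) * htt
    have h5 : t ^ 5 = t := by rw [pow_succ, h4, one_mul]
    rw [frobQ_apply, h5] at hts
    haveI := charP_five hF
    have h22 : (2 : F) * t = 0 := by linear_combination hts
    rcases mul_eq_zero.1 h22 with h | h
    · have : ((2 : ℕ) : F) = 0 := by exact_mod_cast h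
      rw [CharP.cast_eq_zero_iff F 5] at this
      norm_num at this
    · exact ht h
  have hU : IsPGroup 5 (U hF) := fun g => ⟨2, by norm_num; exact pow_five hF g⟩
  -- commutators fix the points in small orbits
  have hsmall : ∀ x : X, Nat.card (MulAction.orbit (U hF) x) < 25 → ∀ u v : U hF, ⁅u, v⁆ • x = x := by
    intro x hx u v
    obtain ⟨k, hk⟩ := hU.card_orbit x
    have hk1 : k ≤ 1 := by
      by_contra hk2
      have := Nat.pow_le_pow_right (by norm_num : 5 > 0) (show 2 ≤ k by omega)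
      omega
    have hindex : (MulAction.stabilizer (U hF) x).index = 5 ^ k := by
      rw [← hk, MulAction.index_stabilizer]
      rfl
    have hcomm : ⁅u, v⁆ ∈ MulAction.stabilizer (U hF) x := by
      rcases Nat.le_one_iff_eq_zero_or_eq_one.1 hk1 with rfl | rfl
      · rw [pow_zero, Subgroup.index_eq_one] at hindex
        rw [hindex]; trivial
      · rw [pow_one] at hindex
        haveI : (MulAction.stabilizer (U hF) x).Normal := by
          obtain ⟨n, hn⟩ := IsPGroup.iff_card.1 hU
          exact Subgroup.normal_of_index_eq_minFac_card (by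
            rw [hindex, hn, Nat.pow_minFac (fun e => by
              subst e
              have := (MulAction.stabilizer (U hF) x).index_dvd_card
              rw [hindex, hn] at this; norm_num at this), Nat.Prime.minFac_eq (by norm_num)])
        have hc : Nat.card (U hF ⧸ MulAction.stabilizer (U hF) x) = 5 := hindex
        haveI := isCyclic_of_prime_card hc
        rw [← QuotientGroup.eq_one_iff, ← QuotientGroup.mk'_apply, map_commutatorElement,
          commutatorElement_eq_one_iff_mul_comm]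
        exact IsCyclic.commGroup.mul_comm _ _
    exact hcomm
  -- commutators exhaust the skew part
  have hcomR : ∀ a c b d : F, Adm hF a c → Adm hF b d → ∀ (hu : R hF a c ∈ U hF) (hv : R hF b d ∈ U hF),
      Adm hF 0 (frobQ hF b * a - frobQ hF a * b) ∧
      ((⁅(⟨_, hu⟩ : U hF), ⟨_, hv⟩⁆ : U hF) : Cfsg.SU 3 F 5) = R hF 0 (frobQ hF b * a - frobQ hF a * b) := by
    intro a c b d h h' hu hv
    set s := frobQ hF b * a - frobQ hF a * b
    have hs : Adm hF 0 s := by
      rw [adm_iff]
      simp only [s, map_sub, map_mul, sig_sig hF, map_zero]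
      ring
    refine ⟨hs, ?_⟩
    rw [show ((⁅(⟨_, hu⟩ : U hF), ⟨_, hv⟩⁆ : U hF) : Cfsg.SU 3 F 5) =
        R hF a c * R hF b d * (R hF a c)⁻¹ * (R hF b d)⁻¹ from rfl, mul_inv_eq_iff_eq_mul, mul_inv_eq_iff_eq_mul,
      R_mul hF h h', R_mul hF hs h', R_mul hF (adm_mul hF hs h') h]
    congr 1
    · ring
    · simp only [s, zero_add, map_zero, zero_mul, sub_zero]
      ring
  -- an orbit of length at least twenty five
  have hskew : ∀ c : F, Adm hF 0 c → ∀ x : X, Nat.card (MulAction.orbit (U hF) x) < 25 → R hF 0 c • x = x := by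
    intro c hc x hx
    obtain ⟨d, hd⟩ := exists_adm hF (-(2 * c))
    obtain ⟨d', hd'⟩ := exists_adm hF (1 : F)
    obtain ⟨-, e⟩ := hcomR _ _ _ _ hd hd' ⟨_, _, hd, rfl⟩ ⟨_, _, hd', rfl⟩
    have hcs : frobQ hF c = -c := by
      rw [adm_iff] at hc
      simp only [map_zero, zero_mul, neg_zero] at hc
      linear_combination hc
    have hval : frobQ hF 1 * -(2 * c) - frobQ hF (-(2 * c)) * 1 = c := by
      simp only [map_one, map_neg, map_mul, map_ofNat, hcs]
      linear_combination -c * five_eq hF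
    rw [hval] at e
    have := hsmall x hx ⟨_, ⟨_, _, hd, rfl⟩⟩ ⟨_, ⟨_, _, hd', rfl⟩⟩
    rw [Subgroup.smul_def, e] at this
    exact this
  obtain ⟨z₀, hz₀, hz₀0⟩ : ∃ c : F, Adm hF 0 c ∧ c ≠ 0 := by
    obtain ⟨g, t, ht, hts, -, -⟩ := exists_g hF
    exact ⟨t, by rw [adm_iff, hts]; simp, ht⟩
  obtain ⟨x₀, hx₀⟩ : ∃ x : X, 25 ≤ Nat.card (MulAction.orbit (U hF) x) := by
    by_contra hall
    push Not at hall
    exact hz₀0 (hcent z₀ hz₀ (hker _ fun x => hskew z₀ hz₀ x (hall x)))
  have huniq : ∀ x : X, 25 ≤ Nat.card (MulAction.orbit (U hF) x) → x ∈ MulAction.orbit (U hF) x₀ := by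
    intro x hx
    by_contra hne
    have hdis : Disjoint (MulAction.orbit (U hF) x) (MulAction.orbit (U hF) x₀) := by
      rw [Set.disjoint_left]
      intro y hy hy0
      refine hne ?_
      rw [← MulAction.orbit_eq_iff] at hy hy0
      rw [← hy0, hy]
      exact MulAction.mem_orbit_self x
    have := Set.ncard_union_eq hdis (Set.toFinite _) (Set.toFinite _)
    have h2 := Set.ncard_le_ncard (Set.subset_univ (MulAction.orbit (U hF) x ∪ MulAction.orbit (U hF) x₀))
      (Set.toFinite _)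
    rw [Set.ncard_univ, this, ← Nat.card_coe_set_eq, ← Nat.card_coe_set_eq] at h2
    omega
  have hO : Nat.card (MulAction.orbit (U hF) x₀) = 25 := by
    obtain ⟨k, hk⟩ := hU.card_orbit x₀
    have hle : Nat.card (MulAction.orbit (U hF) x₀) ≤ Nat.card X :=
      Nat.card_le_card_of_injective _ Subtype.val_injective
    rw [hk] at hx₀ hle ⊢
    have hk2 : k = 2 := by
      rcases Nat.lt_or_ge k 2 with h | h
      · have := Nat.pow_le_pow_right (by norm_num : 5 > 0) (show k ≤ 1 by omega); omega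
      · rcases Nat.lt_or_ge k 3 with h' | h'
        · omega
        · have := Nat.pow_le_pow_right (by norm_num : 5 > 0) h'; omega
    rw [hk2]; norm_num
  obtain ⟨g, t, ht, hts, hg8, hgR⟩ := exists_g hF
  have hconj : ∀ u : U hF, g * u * g⁻¹ ∈ U hF := by
    rintro ⟨_, a, c, h, rfl⟩
    exact ⟨_, _, (hgR a c h).1, (hgR a c h).2⟩
  have hinv : ∀ y ∈ MulAction.orbit (U hF) x₀, g • y ∈ MulAction.orbit (U hF) x₀ := by
    rintro _ ⟨u, rfl⟩
    have hg0 : g • x₀ ∈ MulAction.orbit (U hF) x₀ := by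
      refine huniq _ ?_
      rw [← hO]
      refine Nat.card_le_card_of_injective
        (fun y => (⟨g • (y : X), ?_⟩ : MulAction.orbit (U hF) (g • x₀))) fun y y' e => ?_
      · obtain ⟨_, u, rfl⟩ := y
        refine ⟨⟨_, hconj u⟩, ?_⟩
        simp only [Subgroup.smul_def, smul_smul, inv_mul_cancel_right]
      · exact Subtype.ext (MulAction.injective g (congrArg Subtype.val e))
    have : g • (u • x₀) = (⟨_, hconj u⟩ : U hF) • (g • x₀) := by
      simp only [Subgroup.smul_def, smul_smul, inv_mul_cancel_right]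
    rw [this, ← MulAction.orbit_eq_iff.2 hg0]
    exact MulAction.mem_orbit _ _
  let T := Subgroup.zpowers g
  haveI : Fact (Nat.Prime 2) := ⟨Nat.prime_two⟩
  have hT : IsPGroup 2 T := fun y => by
    obtain ⟨y, k, rfl⟩ := y
    refine ⟨3, Subtype.ext ?_⟩
    show ((g ^ k) ^ (2 ^ 3) : Cfsg.SU 3 F 5) = 1
    rw [← zpow_natCast, ← zpow_mul, mul_comm, zpow_mul]
    norm_num [hg8]
  have hTinv : ∀ s : T, ∀ y ∈ MulAction.orbit (U hF) x₀, (s : Cfsg.SU 3 F 5) • y ∈ MulAction.orbit (U hF) x₀ := by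
    rintro ⟨_, k, rfl⟩ y hy
    obtain ⟨m, hm⟩ : ∃ m : ℕ, g ^ k = g ^ m := by
      refine ⟨(k % 8).toNat, ?_⟩
      rw [← zpow_natCast, Int.toNat_of_nonneg (Int.emod_nonneg _ (by norm_num))]
      conv_lhs => rw [← Int.emod_add_ediv_mul k 8, zpow_add, mul_comm _ (8 : ℤ), zpow_mul]
      simp [show g ^ (8 : ℤ) = 1 by exact_mod_cast hg8]
    show (g ^ k) • y ∈ _
    rw [hm]
    clear hm
    induction m generalizing y with
    | zero => simpa using hy
    | succ m ih => rw [pow_succ, mul_smul]; exact ih _ (hinv y hy)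
  letI : MulAction T (MulAction.orbit (U hF) x₀) :=
    { smul := fun s y => ⟨(s : Cfsg.SU 3 F 5) • (y : X), hTinv s y y.2⟩
      one_smul := fun y => Subtype.ext (one_smul (Cfsg.SU 3 F 5) (y : X))
      mul_smul := fun s s' y => Subtype.ext (mul_smul (s : Cfsg.SU 3 F 5) (s' : Cfsg.SU 3 F 5) (y : X)) }
  obtain ⟨⟨x, hxO⟩, hxfix⟩ := hT.nonempty_fixed_point_of_prime_not_dvd_card
    (MulAction.orbit (U hF) x₀) (by rw [hO]; norm_num)
  have hgx : g • x = x := congrArg Subtype.val (hxfix ⟨g, Subgroup.mem_zpowers g⟩)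
  have hzx : ∀ c : F, Adm hF 0 c → R hF 0 c • x = x → c = 0 := by
    intro c hc hfx
    refine hcent c hc (hker _ fun y => ?_)
    by_cases hy : 25 ≤ Nat.card (MulAction.orbit (U hF) y)
    · have hyx : y ∈ MulAction.orbit (U hF) x := by
        rw [MulAction.orbit_eq_iff.2 hxO]; exact huniq y hy
      obtain ⟨⟨_, a, d, h, rfl⟩, rfl⟩ := hyx
      simp only [Subgroup.smul_def, smul_smul]
      rw [R_mul hF hc h, show (0 : F) + a = a + 0 by ring,
        show c + d - frobQ hF 0 * a = d + c - frobQ hF a * 0 by simp [add_comm], ← R_mul hF h hc, mul_smul, hfx]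
    · exact hskew c hc y (by omega)
  -- the stabiliser is too large
  obtain ⟨s, hs, hs1⟩ : ∃ s : U hF, s • x = x ∧ s ≠ 1 := by
    by_contra hnone
    push Not at hnone
    have hinj : Function.Injective (fun u : U hF => (⟨u • x, by
        rw [← MulAction.orbit_eq_iff.2 hxO]; exact MulAction.mem_orbit _ _⟩ : MulAction.orbit (U hF) x₀)) := by
      intro u v e
      have e' : u • x = v • x := congrArg Subtype.val e
      have := hnone (v⁻¹ * u) (by rw [mul_smul, e', inv_smul_smul])
      exact (inv_mul_eq_one.1 this).symm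
    have hle := Nat.card_le_card_of_injective _ hinj
    rw [hO] at hle
    choose cc hcc using exists_adm hF
    have hinj2 : Function.Injective (fun p : F × Bool =>
        (⟨R hF p.1 (cc p.1 + if p.2 then z₀ else 0), p.1, _, (adm_iff hF _ _).2 (by
          have h1 := (adm_iff hF _ _).1 (hcc p.1)
          have h2 := (adm_iff hF _ _).1 hz₀
          simp only [map_zero, zero_mul, neg_zero] at h2
          split_ifs
          · rw [map_add]; linear_combination h1 + h2
          · rw [add_zero]; exact h1), rfl⟩ : U hF)) := by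
      intro p r e
      have hadm : ∀ p : F × Bool, Adm hF p.1 (cc p.1 + if p.2 then z₀ else 0) := fun p => (adm_iff hF _ _).2 (by
          have h1 := (adm_iff hF _ _).1 (hcc p.1)
          have h2 := (adm_iff hF _ _).1 hz₀
          simp only [map_zero, zero_mul, neg_zero] at h2
          split_ifs
          · rw [map_add]; linear_combination h1 + h2
          · rw [add_zero]; exact h1)
      obtain ⟨e1, e2⟩ := R_inj hF (hadm p) (hadm r) (congrArg Subtype.val e)
      obtain ⟨a, b⟩ := p
      obtain ⟨a', b'⟩ := r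
      obtain rfl : a = a' := e1
      refine Prod.ext rfl ?_
      cases b <;> cases b' <;> simp_all
    have h50 := Nat.card_le_card_of_injective _ hinj2
    rw [Nat.card_prod, Nat.card_eq_fintype_card (α := F), hF, Nat.card_eq_fintype_card (α := Bool),
      Fintype.card_bool] at h50
    omega
  obtain ⟨_, a, c, h, rfl⟩ := s
  have hfix : R hF a c • x = x := hs
  obtain ⟨h', hconj'⟩ := hgR a c h
  have hfix' : R hF (t * a) (-(t * t) * c) • x = x := by
    rw [← hconj', mul_smul, mul_smul]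
    conv_lhs => rw [show g⁻¹ • x = x by rw [inv_smul_eq_iff, hgx]]
    rw [hfix, hgx]
  by_cases ha : a = 0
  · subst ha
    have := hzx c h hfix
    subst this
    exact hs1 (Subtype.ext (R_zero hF))
  · obtain ⟨hadm, e⟩ := hcomR _ _ _ _ h h' ⟨_, _, h, rfl⟩ ⟨_, _, h', rfl⟩
    set u : U hF := ⟨_, ⟨_, _, h, rfl⟩⟩
    set v : U hF := ⟨_, ⟨_, _, h', rfl⟩⟩
    have hu : u ∈ MulAction.stabilizer (U hF) x := hfix
    have hv : v ∈ MulAction.stabilizer (U hF) x := hfix'
    have hcm : ⁅u, v⁆ ∈ MulAction.stabilizer (U hF) x :=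
      mul_mem (mul_mem (mul_mem hu hv) (inv_mem hu)) (inv_mem hv)
    have hc' : R hF 0 (frobQ hF (t * a) * a - frobQ hF a * (t * a)) • x = x := by
      rw [← e]; exact hcm
    have h0 := hzx _ hadm hc'
    rw [map_mul, hts] at h0
    have h0' : (2 : F) * (t * (frobQ hF a * a)) = 0 := by linear_combination -h0
    haveI := charP_five hF
    rcases mul_eq_zero.1 h0' with h2 | h2
    · have : ((2 : ℕ) : F) = 0 := by exact_mod_cast h2
      rw [CharP.cast_eq_zero_iff F 5] at this
      norm_num at this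
    · rcases mul_eq_zero.1 h2 with h3 | h3
      · exact ht h3
      · rcases mul_eq_zero.1 h3 with h4 | h4
        · exact ha ((map_eq_zero _).1 h4)
        · exact ha h4

end Cfsg.Agent.KnownA.U35
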