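import Cfsg.Agent.KnownA.U35.Lower
import Cfsg.Agent.Core.AltPresentation

/-!
# An alternating group of degree seven inside `PSU₃(5)`
-/

set_option autoImplicit false

namespace Cfsg.Agent.KnownA.U35

open Matrix
open Cfsg.Agent.Forms (frobQ frobQ_apply)

/-- matrices over `ℤ/5` -/
abbrev M5 : Type := Matrix (Fin 3) (Fin 3) (ZMod 5)

/-- product of pairs standing for `P + wQ`, `w² = 2` -/
def pmul (X Y : M5 × M5) : M5 × M5 := (X.1 * Y.1 + 2 • (X.2 * Y.2), X.1 * Y.2 + X.2 * Y.1)

/-- conjugate transpose -/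
def pstar (X : M5 × M5) : M5 × M5 := (X.1ᵀ, -X.2ᵀ)

/-- product of scalars standing for `a + wb` -/
def smulp (x y : ZMod 5 × ZMod 5) : ZMod 5 × ZMod 5 := (x.1 * y.1 + 2 * (x.2 * y.2), x.1 * y.2 + x.2 * y.1)

/-- an entry -/
def ent (X : M5 × M5) (i j : Fin 3) : ZMod 5 × ZMod 5 := (X.1 i j, X.2 i j)

/-- the determinant of a pair -/
def pdet (X : M5 × M5) : ZMod 5 × ZMod 5 :=
  smulp (smulp (ent X 0 0) (ent X 1 1)) (ent X 2 2) - smulp (smulp (ent X 0 0) (ent X 1 2)) (ent X 2 1) -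
    smulp (smulp (ent X 0 1) (ent X 1 0)) (ent X 2 2) + smulp (smulp (ent X 0 1) (ent X 1 2)) (ent X 2 0) +
    smulp (smulp (ent X 0 2) (ent X 1 0)) (ent X 2 1) - smulp (smulp (ent X 0 2) (ent X 1 1)) (ent X 2 0)

/-- generators satisfying the relations of the alternating group modulo scalars -/
def gens : Fin 5 → M5 × M5 :=
  ![(!![4, 3, 0; 4, 1, 1; 1, 4, 0], !![4, 0, 1; 1, 1, 3; 2, 2, 0]),
    (!![4, 0, 0; 0, 4, 0; 0, 0, 1], !![0, 0, 0; 0, 0, 0; 0, 0, 0]),
    (!![4, 0, 0; 0, 3, 0; 0, 0, 2], !![0, 0, 0; 0, 0, 3; 0, 2, 0]),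
    (!![2, 3, 0; 3, 3, 0; 0, 0, 4], !![0, 1, 0; 4, 0, 0; 0, 0, 0]),
    (!![1, 0, 0; 0, 4, 0; 0, 0, 4], !![0, 0, 0; 0, 0, 0; 0, 0, 0])]

/-- a scalar pair -/
def IsScalarPair (X : M5 × M5) : Prop :=
  X = (1, 0) ∨ X = (2 • 1, 2 • 1) ∨ X = (2 • 1, 3 • 1)

instance (X : M5 × M5) : Decidable (IsScalarPair X) := inferInstanceAs (Decidable (_ ∨ _))

theorem gensData : (∀ i, pmul (pstar (gens i)) (gens i) = (1, 0)) ∧ (∀ i, pdet (gens i) = (1, 0)) := by
  refine ⟨?_, ?_⟩ <;> decide +kernel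

theorem relZero : IsScalarPair (pmul (pmul (gens 0) (gens 0)) (gens 0)) := by decide +kernel

theorem relInv : ∀ i : Fin 5, 1 ≤ i.val → IsScalarPair (pmul (gens i) (gens i)) := by decide +kernel

theorem relBraid : ∀ i j : Fin 5, j.val = i.val + 1 →
    IsScalarPair (pmul (pmul (pmul (gens i) (gens j)) (pmul (gens i) (gens j))) (pmul (gens i) (gens j))) := by
  decide +kernel

theorem relFar : ∀ i j : Fin 5, i.val + 1 < j.val →
    IsScalarPair (pmul (pmul (gens i) (gens j)) (pmul (gens i) (gens j))) := by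
  decide +kernel

theorem gens_one_ne : ¬ IsScalarPair (gens 1) := by decide +kernel

variable {F : Type*} [Field F] [Fintype F] (hF : Fintype.card F = 5 ^ 2)

section ev
variable [CharP F 5]

/-- reduction into the field -/
noncomputable def red : M5 →+* Matrix (Fin 3) (Fin 3) F := (ZMod.castHom (dvd_refl 5) F).mapMatrix

/-- evaluation of a pair -/
noncomputable def ev (w : F) (X : M5 × M5) : Matrix (Fin 3) (Fin 3) F := red X.1 + w • red X.2

/-- evaluation of a scalar pair -/
noncomputable def evs (w : F) (x : ZMod 5 × ZMod 5) : F :=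
  ZMod.castHom (dvd_refl 5) F x.1 + w * ZMod.castHom (dvd_refl 5) F x.2

theorem evs_smulp {w : F} (hw : w * w = 2) (x y : ZMod 5 × ZMod 5) :
    evs w (smulp x y) = evs w x * evs w y := by
  simp only [evs, smulp, map_add, map_mul, map_ofNat]
  linear_combination -(ZMod.castHom (dvd_refl 5) F x.2 * ZMod.castHom (dvd_refl 5) F y.2) * hw

theorem ev_pmul {w : F} (hw : w * w = 2) (X Y : M5 × M5) : ev w (pmul X Y) = ev w X * ev w Y := by
  simp only [ev, pmul, map_add, map_nsmul, map_mul, Matrix.add_mul, Matrix.mul_add, Matrix.smul_mul,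
    Matrix.mul_smul, smul_add, smul_smul, hw]
  module

theorem ev_entry (w : F) (X : M5 × M5) (i j : Fin 3) : ev w X i j = evs w (ent X i j) := by
  simp [ev, evs, ent, red]

theorem ev_pdet {w : F} (hw : w * w = 2) (X : M5 × M5) : (ev w X).det = evs w (pdet X) := by
  have hadd : ∀ x y, evs w (x + y) = evs w x + evs w y := fun x y => by simp [evs]; ring
  have hsub : ∀ x y, evs w (x - y) = evs w x - evs w y := fun x y => by simp [evs]; ring
  rw [Matrix.det_fin_three]
  simp only [pdet, hadd, hsub, evs_smulp hw, ev_entry]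

theorem ev_one (w : F) : ev w ((1 : M5), (0 : M5)) = 1 := by simp [ev]

theorem ev_injective {w : F} (hw : ∀ a : ZMod 5, w ≠ ZMod.castHom (dvd_refl 5) F a) :
    Function.Injective (ev w) := by
  intro X Y h
  have key : ∀ i j, X.1 i j = Y.1 i j ∧ X.2 i j = Y.2 i j := by
    intro i j
    have e := congrFun (congrFun h i) j
    rw [ev_entry, ev_entry] at e
    simp only [evs, ent] at e
    haveI : Fact (Nat.Prime 5) := ⟨by norm_num⟩
    have hi : Function.Injective (ZMod.castHom (dvd_refl 5) F) := (ZMod.castHom (dvd_refl 5) F).injective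
    by_cases hb : X.2 i j = Y.2 i j
    · rw [hb] at e
      exact ⟨hi (add_right_cancel e), hb⟩
    · refine absurd ?_ (hw ((Y.1 i j - X.1 i j) / (X.2 i j - Y.2 i j)))
      rw [map_div₀, eq_div_iff ((map_ne_zero_iff _ hi).2 (sub_ne_zero.2 hb)), map_sub, map_sub]
      linear_combination e
  exact Prod.ext (Matrix.ext fun i j => (key i j).1) (Matrix.ext fun i j => (key i j).2)

theorem ev_scalar {w : F} {X : M5 × M5} (h : IsScalarPair X) : ∃ c : F, ev w X = c • 1 := by
  rcases h with rfl | rfl | rfl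
  · exact ⟨1, by rw [ev_one, one_smul]⟩
  · exact ⟨((2 : ℕ) : F) + w * ((2 : ℕ) : F), by
      simp only [ev, map_nsmul, map_one]
      rw [← Nat.cast_smul_eq_nsmul F, smul_smul, ← add_smul]⟩
  · exact ⟨((2 : ℕ) : F) + w * ((3 : ℕ) : F), by
      simp only [ev, map_nsmul, map_one]
      rw [← Nat.cast_smul_eq_nsmul F, ← Nat.cast_smul_eq_nsmul F, smul_smul, ← add_smul]⟩

end ev

include hF in
theorem exists_w : ∃ w : F, w * w = 2 ∧ frobQ hF w = -w := by
  obtain ⟨t, ht4, hts⟩ := exists_t hF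
  have h5 := five_eq hF
  have h : (t * t - 2) * (t * t + 2) = 0 := by linear_combination ht4 - h5
  rcases mul_eq_zero.1 h with h | h
  · exact ⟨t, by linear_combination h, hts⟩
  · exact ⟨2 * t, by linear_combination 4 * h - 2 * h5, by rw [map_mul, map_ofNat, hts]; ring⟩

include hF in
/-- A subgroup of index fifty. -/
theorem exists_index_fifty : ∃ H : Subgroup (Cfsg.PSU 3 F 5), H.index = 50 := by
  classical
  haveI := charP_five hF
  haveI : Fact (Nat.Prime 5) := ⟨by norm_num⟩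
  obtain ⟨w, hw, hws⟩ := exists_w hF
  obtain ⟨hstar, hdet⟩ := gensData
  have hw0 : w ≠ 0 := by
    rintro rfl
    have h2 : ((2 : ℕ) : F) = 0 := by push_cast; linear_combination -hw
    rw [CharP.cast_eq_zero_iff F 5] at h2
    norm_num at h2
  have hnot : ∀ a : ZMod 5, w ≠ ZMod.castHom (dvd_refl 5) F a := by
    intro a e
    have h1 : frobQ hF w = w := by
      rw [frobQ_apply, e, ← map_pow, ZMod.pow_card]
    rw [hws] at h1
    have h2 : (2 : F) * w = 0 := by linear_combination -h1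
    rcases mul_eq_zero.1 h2 with h | h
    · have h' : ((2 : ℕ) : F) = 0 := by exact_mod_cast h
      rw [CharP.cast_eq_zero_iff F 5] at h'
      norm_num at h'
    · exact hw0 h
  have hub : ∀ i, ∀ x y, ub hF (ev w (gens i) *ᵥ x) (ev w (gens i) *ᵥ y) = ub hF x y := by
    intro i x y
    have hd : ∀ u v : Fin 3 → F, ub hF u v = (fun k => frobQ hF (u k)) ⬝ᵥ v := fun u v => by
      rw [ub, Forms.hermB_apply, Cfsg.hermForm, dotProduct]
      exact Finset.sum_congr rfl fun k _ => by rw [frobQ_apply, mul_comm]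
    have hconj : ∀ X : M5 × M5, (ev w X).map (frobQ hF) = (ev w (pstar X))ᵀ := by
      intro X
      ext k l
      rw [Matrix.map_apply, Matrix.transpose_apply, ev_entry, ev_entry]
      simp only [evs, ent, pstar, Matrix.transpose_apply, Matrix.neg_apply, map_add, map_mul, map_neg, hws]
      have hfix : ∀ a : ZMod 5, frobQ hF (ZMod.castHom (dvd_refl 5) F a) = ZMod.castHom (dvd_refl 5) F a :=
        fun a => by rw [frobQ_apply, ← map_pow, ZMod.pow_card]
      rw [hfix, hfix]; ring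
    have h1 : (fun k => frobQ hF ((ev w (gens i) *ᵥ x) k)) =
        (ev w (pstar (gens i)))ᵀ *ᵥ (fun k => frobQ hF (x k)) := by
      funext k
      rw [RingHom.map_mulVec, hconj]
      rfl
    rw [hd, hd, h1, Matrix.dotProduct_mulVec, Matrix.mulVec_transpose, Matrix.vecMul_vecMul, ← ev_pmul hw,
      hstar i, ev_one, Matrix.vecMul_one]
  have hdet' : ∀ i, LinearMap.det (Matrix.toLin' (ev w (gens i))) = 1 := fun i => by
    rw [LinearMap.det_toLin', ev_pdet hw, hdet i]
    simp [evs]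
  have hex : ∀ i, ∃ g : Cfsg.SU 3 F 5, ∀ x, act g x = ev w (gens i) *ᵥ x := fun i => by
    obtain ⟨g, hg⟩ := exists_su_of_linearMap hF (Matrix.toLin' (ev w (gens i)))
      (fun x y => by simp only [Matrix.toLin'_apply]; exact hub i x y) (hdet' i)
    exact ⟨g, fun x => by rw [hg]; rfl⟩
  choose a ha using hex
  let mat : Cfsg.SU 3 F 5 →* Matrix (Fin 3) (Fin 3) F :=
    { toFun := fun g => ((g : Matrix.SpecialLinearGroup (Fin 3) F) : Matrix (Fin 3) (Fin 3) F)
      map_one' := rfl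
      map_mul' := fun _ _ => rfl }
  have hmat : ∀ i, mat (a i) = ev w (gens i) := fun i => Matrix.ext_iff_mulVec.2 fun x => ha i x
  have hcen : ∀ g : Cfsg.SU 3 F 5, (∃ X, IsScalarPair X ∧ mat g = ev w X) →
      g ∈ Subgroup.center (Cfsg.SU 3 F 5) := by
    rintro g ⟨X, hX, e⟩
    obtain ⟨c, hc⟩ := ev_scalar (w := w) hX
    refine Subgroup.mem_center_iff.2 fun y => Subtype.ext (Subtype.ext ?_)
    show mat (y * g) = mat (g * y)
    rw [map_mul, map_mul, e, hc, Matrix.mul_smul, Matrix.smul_mul, Matrix.one_mul, Matrix.mul_one]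
  let x : Fin 5 → Cfsg.PSU 3 F 5 := fun i => QuotientGroup.mk' _ (a i)
  let rels : Set (FreeGroup (Fin 5)) :=
    ({g : FreeGroup (Fin 5) | ∃ i : Fin 5, i.val = 0 ∧ g = FreeGroup.of i ^ 3} ∪
       {g | ∃ i : Fin 5, 1 ≤ i.val ∧ g = FreeGroup.of i ^ 2} ∪
       {g | ∃ i j : Fin 5, j.val = i.val + 1 ∧ g = (FreeGroup.of i * FreeGroup.of j) ^ 3} ∪
       {g | ∃ i j : Fin 5, i.val + 1 < j.val ∧ g = (FreeGroup.of i * FreeGroup.of j) ^ 2})
  have hone : ∀ g : Cfsg.SU 3 F 5, (∃ X, IsScalarPair X ∧ mat g = ev w X) →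
      QuotientGroup.mk' (Subgroup.center (Cfsg.SU 3 F 5)) g = 1 := fun g hg =>
    (QuotientGroup.eq_one_iff g).2 (hcen g hg)
  have hrels : ∀ r ∈ rels, FreeGroup.lift x r = 1 := by
    rintro r (((⟨i, hi, rfl⟩ | ⟨i, hi, rfl⟩) | ⟨i, j, hij, rfl⟩) | ⟨i, j, hij, rfl⟩) <;>
      simp only [map_pow, map_mul, FreeGroup.lift_apply_of, x] <;>
      simp only [← map_mul, ← map_pow]
    · obtain rfl : i = 0 := Fin.ext hi
      exact hone _ ⟨_, relZero, by simp only [pow_three, map_mul, hmat, ev_pmul hw, Matrix.mul_assoc]⟩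
    · exact hone _ ⟨_, relInv i hi, by simp only [pow_two, map_mul, hmat, ev_pmul hw]⟩
    · exact hone _ ⟨_, relBraid i j hij, by simp only [map_pow, map_mul, hmat, pow_three, ev_pmul hw, Matrix.mul_assoc]⟩
    · exact hone _ ⟨_, relFar i j hij, by simp only [map_pow, map_mul, hmat, pow_two, ev_pmul hw]⟩
  obtain ⟨e⟩ : Nonempty (PresentedGroup rels ≃* alternatingGroup (Fin 7)) := Agent.Core.AltPres.presented_iso 4
  let θ : alternatingGroup (Fin 7) →* Cfsg.PSU 3 F 5 :=
    (PresentedGroup.toGroup hrels).comp e.symm.toMonoidHom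
  haveI : IsSimpleGroup (alternatingGroup (Fin 7)) := alternatingGroup.isSimpleGroup (by simp)
  have hθ : θ.ker = ⊥ := by
    rcases θ.normal_ker.eq_bot_or_eq_top with h | h
    · exact h
    · exfalso
      have h1 : θ (e (PresentedGroup.of 1)) = 1 := by
        have : e (PresentedGroup.of 1) ∈ θ.ker := h ▸ Subgroup.mem_top _
        exact this
      simp only [θ, MonoidHom.comp_apply, MulEquiv.coe_toMonoidHom, MulEquiv.symm_apply_apply,
        PresentedGroup.toGroup.of, x] at h1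
      have hcz : a 1 ∈ Subgroup.center (Cfsg.SU 3 F 5) := (QuotientGroup.eq_one_iff _).1 h1
      have hcomm := congrArg mat (Subgroup.mem_center_iff.1 hcz (a 2))
      rw [map_mul, map_mul, hmat, hmat, ← ev_pmul hw, ← ev_pmul hw] at hcomm
      exact absurd (ev_injective hnot hcomm) (by decide +kernel)
  refine ⟨θ.range, ?_⟩
  have hrange : Nat.card θ.range = 2520 := by
    rw [← Nat.card_congr (MonoidHom.ofInjective ((MonoidHom.ker_eq_bot_iff θ).1 hθ)).toEquiv,
      nat_card_alternatingGroup, Nat.card_fin]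
    rfl
  have hG := Forms.card_PSU hF (n := 3) (by norm_num)
  norm_num [Finset.prod_range_succ, Nat.even_iff] at hG
  have hmul := θ.range.card_mul_index
  rw [hrange] at hmul
  rw [← Nat.card_eq_fintype_card] at hG
  show θ.range.index = 50
  change 3 * (6 * Nat.card (Cfsg.PSU 3 F 5)) = 2268000 at hG
  omega

end Cfsg.Agent.KnownA.U35
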